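import Mathlib
import Cfsg.Agent.Lib.Helper19.SPU.Defs
import Cfsg.Agent.Lib.Helper40.Fitting

/-!
# SPU (S2316): package [DEC1]

Orthogonal Fitting decomposition of an isometry `g` of a symplectic form with respect to `g - 1`.
-/

set_option autoImplicit false

namespace Cfsg.Agent.Lib.Helper61.SPU

open Matrix Cfsg.Agent.Lib.Helper19.SPU

universe u

section tools

variable {F : Type u} [Field F] {n : Type} [Fintype n] [DecidableEq n]

/-- an alternating matrix gives an alternating form -/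
theorem alt_dot (K : Matrix n n F) (hT : Kᵀ = -K) (hd : ∀ i, K i i = 0) (x : n → F) :
    x ⬝ᵥ K *ᵥ x = 0 := by
  have hanti : ∀ i j, K j i = - K i j := fun i j => by
    have h := congrFun (congrFun hT i) j
    simpa using h
  have e : x ⬝ᵥ K *ᵥ x = ∑ p : n × n, x p.1 * K p.1 p.2 * x p.2 := by
    simp only [dotProduct, Matrix.mulVec, Finset.mul_sum, Fintype.sum_prod_type, mul_assoc]
  rw [e]
  apply Finset.sum_involution (fun p _ => (p.2, p.1))
  · intro p _
    simp only
    rw [hanti p.1 p.2]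
    ring
  · intro p _ hne heq
    apply hne
    have h12 : p.2 = p.1 := congrArg Prod.fst heq
    rw [h12, hd]
    ring
  · intro p _
    exact Finset.mem_univ _
  · intro p _
    rfl

/-- congruence preserves "alternating" -/
theorem congr_alt {n' : Type} [Fintype n'] [DecidableEq n'] (K : Matrix n n F) (hT : Kᵀ = -K)
    (hd : ∀ i, K i i = 0) (P : Matrix n n' F) :
    (Pᵀ * K * P)ᵀ = -(Pᵀ * K * P) ∧ ∀ j, (Pᵀ * K * P) j j = 0 := by
  constructor
  · rw [Matrix.transpose_mul, Matrix.transpose_mul, Matrix.transpose_transpose, hT]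
    simp [Matrix.mul_assoc]
  · intro j
    have h := alt_dot K hT hd (fun a => P a j)
    rw [← h, Matrix.mul_assoc]
    simp only [Matrix.mul_apply, Matrix.transpose_apply, dotProduct, Matrix.mulVec]

/-- Sylvester-type vanishing: `(1 + N)ᵀ Z (1 + A) = Z`, `N` nilpotent, `A` invertible. -/
theorem sylv_zero {α β : Type} [Fintype α] [DecidableEq α] [Fintype β] [DecidableEq β]
    (N : Matrix α α F) (A : Matrix β β F) (Z : Matrix α β F) (hN : IsNilpotent N)
    (hA : IsUnit A) (h : (1 + N)ᵀ * Z * (1 + A) = Z) : Z = 0 := by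
  obtain ⟨k, hk⟩ := hN
  obtain ⟨A', hA'⟩ := hA.exists_right_inv
  have hT : Nᵀ ^ k = 0 := by
    rw [← Matrix.transpose_pow, hk, Matrix.transpose_zero]
  have hstar : Z * A = -(Nᵀ * (Z * (1 + A))) := by
    have h' : Z + Z * A + Nᵀ * (Z * (1 + A)) = Z := by
      rw [Matrix.transpose_add, Matrix.transpose_one, Matrix.add_mul, Matrix.add_mul,
        Matrix.one_mul, Matrix.mul_add, Matrix.mul_one, Matrix.mul_assoc] at h
      exact h
    have h'' : Z * A + Nᵀ * (Z * (1 + A)) = 0 := by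
      have := congrArg (fun M => M - Z) h'
      simp only [sub_self] at this
      rw [← this]
      abel
    exact eq_neg_of_add_eq_zero_left h''
  have step : ∀ j : ℕ, Nᵀ ^ (j + 1) * Z = 0 → Nᵀ ^ j * Z = 0 := by
    intro j hj
    have e1 : Nᵀ ^ j * Z * A = 0 := by
      rw [Matrix.mul_assoc, hstar, Matrix.mul_neg, ← Matrix.mul_assoc, ← pow_succ,
        ← Matrix.mul_assoc, hj, Matrix.zero_mul, neg_zero]
    have e2 : Nᵀ ^ j * Z = Nᵀ ^ j * Z * A * A' := by
      rw [Matrix.mul_assoc (Nᵀ ^ j * Z), hA', Matrix.mul_one]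
    rw [e2, e1, Matrix.zero_mul]
  have all : ∀ i : ℕ, i ≤ k → Nᵀ ^ (k - i) * Z = 0 := by
    intro i
    induction i with
    | zero =>
      intro _
      rw [Nat.sub_zero, hT, Matrix.zero_mul]
    | succ i ih =>
      intro hi
      apply step
      have e : k - (i + 1) + 1 = k - i := by omega
      rw [e]
      exact ih (by omega)
  have := all k le_rfl
  rwa [Nat.sub_self, pow_zero, Matrix.one_mul] at this

end tools

/-- [DEC1] -/
theorem pkgDec1 : PkgDec1.{u} := by
  intro F _ α β _ _ _ _ K g hK hg hr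
  classical
  obtain ⟨hKT, hKd, hKu⟩ := hK
  obtain ⟨P, N, A, hN, hA, hM⟩ := Cfsg.Agent.Lib.Helper40.fitting_exists (g - 1) hr
  have hgP : g * P.val = P.val * Matrix.fromBlocks (1 + N) 0 0 (1 + A) := by
    have e : Matrix.fromBlocks (1 + N) 0 0 (1 + A) = 1 + Matrix.fromBlocks N 0 0 A := by
      rw [← Matrix.fromBlocks_one, Matrix.fromBlocks_add]
      simp
    rw [e, Matrix.mul_add, Matrix.mul_one, ← hM, Matrix.sub_mul, Matrix.one_mul]
    abel
  obtain ⟨K', hK'⟩ : ∃ K' : Matrix (α ⊕ β) (α ⊕ β) F, K' = P.valᵀ * K * P.val := ⟨_, rfl⟩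
  obtain ⟨hK'T, hK'd⟩ := congr_alt K hKT hKd P.val
  rw [← hK'] at hK'T hK'd
  have hK'u : IsUnit K' := by
    rw [hK']
    have hP : IsUnit P.val := P.isUnit
    have hPT : IsUnit P.valᵀ := by
      rw [Matrix.isUnit_iff_isUnit_det, Matrix.det_transpose, ← Matrix.isUnit_iff_isUnit_det]
      exact hP
    exact (hPT.mul hKu).mul hP
  have hGK : (Matrix.fromBlocks (1 + N) 0 0 (1 + A))ᵀ * K' *
      Matrix.fromBlocks (1 + N) 0 0 (1 + A) = K' := by
    calc (Matrix.fromBlocks (1 + N) 0 0 (1 + A))ᵀ * K' * Matrix.fromBlocks (1 + N) 0 0 (1 + A)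
        = (P.val * Matrix.fromBlocks (1 + N) 0 0 (1 + A))ᵀ * K *
          (P.val * Matrix.fromBlocks (1 + N) 0 0 (1 + A)) := by
          rw [hK', Matrix.transpose_mul]
          simp only [Matrix.mul_assoc]
      _ = (g * P.val)ᵀ * K * (g * P.val) := by rw [hgP]
      _ = P.valᵀ * (gᵀ * K * g) * P.val := by
          rw [Matrix.transpose_mul]
          simp only [Matrix.mul_assoc]
      _ = K' := by rw [hg, hK']
  obtain ⟨K11, Z, W, K22, hKb⟩ : ∃ (K11 : Matrix α α F) (Z : Matrix α β F) (W : Matrix β α F)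
      (K22 : Matrix β β F), K' = Matrix.fromBlocks K11 Z W K22 :=
    ⟨_, _, _, _, (Matrix.fromBlocks_toBlocks K').symm⟩
  rw [hKb, Matrix.fromBlocks_transpose, Matrix.fromBlocks_multiply, Matrix.fromBlocks_multiply]
    at hGK
  simp only [Matrix.transpose_zero, Matrix.zero_mul, Matrix.mul_zero, add_zero, zero_add] at hGK
  obtain ⟨h11, h12, h21, h22⟩ := Matrix.fromBlocks_inj.mp hGK
  have hZ : Z = 0 := sylv_zero N A Z hN hA h12
  rw [hKb, Matrix.fromBlocks_transpose, Matrix.fromBlocks_neg] at hK'T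
  obtain ⟨t11, t12, t21, t22⟩ := Matrix.fromBlocks_inj.mp hK'T
  have hW : W = 0 := by
    have : W = -Zᵀ := by rw [t21, neg_neg]
    rw [this, hZ, Matrix.transpose_zero, neg_zero]
  rw [hZ, hW] at hKb
  have hdet : IsUnit (K11.det * K22.det) := by
    have h := (Matrix.isUnit_iff_isUnit_det _).mp hK'u
    rw [hKb, Matrix.det_fromBlocks_zero₁₂] at h
    exact h
  have hd11 : ∀ i, K11 i i = 0 := fun i => by
    have := hK'd (Sum.inl i)
    rw [hKb] at this
    simpa using this
  have hd22 : ∀ i, K22 i i = 0 := fun i => by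
    have := hK'd (Sum.inr i)
    rw [hKb] at this
    simpa using this
  refine ⟨P, K11, K22, 1 + N, 1 + A, ⟨t11, hd11, ?_⟩, ⟨t22, hd22, ?_⟩, ?_, hgP, h11, h22, ?_, ?_⟩
  · rw [Matrix.isUnit_iff_isUnit_det]
    exact isUnit_of_mul_isUnit_left hdet
  · rw [Matrix.isUnit_iff_isUnit_det]
    exact isUnit_of_mul_isUnit_right hdet
  · rw [← hK', hKb]
  · rw [add_sub_cancel_left]
    exact hN
  · rw [add_sub_cancel_left]
    exact hA

end Cfsg.Agent.Lib.Helper61.SPU
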